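import Cfsg.Agent.H496.Mono.Asm
import Cfsg.Agent.H496.Mono.Root
import Cfsg.Agent.H900.Fra.Rows
import Cfsg.Agent.H496.Gen.T2Model
import Cfsg.Agent.H655.Mono.Orth
import Cfsg.Agent.H875.Mono.Trich
import Cfsg.Agent.H875.Mono.NoPlus
import Cfsg.Agent.H225.Mono.End

/-!
# S2187, X4, p = 3: the inner-diagonal parts (helper496)

* `p1e_F4`, `p1e_E7`, `p1e_E8`, `p1g_E6`, `p1g_TE6` : frames (helper900);
* `three_F4`, `three_E6`, `three_TE6`, `three_E7`, `three_E8` : `GenIn m 3` from the orbit types `A`, `N` (helper321) and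
  the ends `P8b`, `P8c`.
-/

set_option autoImplicit false
set_option linter.unusedSectionVars false

namespace Cfsg.Agent.H496.Mono

open CoxeterSystem Cfsg Cfsg.Lie Cfsg.Lie.ChevalleyDatum
open Cfsg.Agent.ChevalleyStructure Cfsg.Agent.ChevalleyStructure.CoxeterGeomTypes Cfsg.Agent.Nodes.RGDChev
  Cfsg.Agent.H316.U6 Cfsg.Agent.H818.Gen Cfsg.Agent.H818.Mono
open Cfsg.Agent.H818.StrP.UTab Cfsg.Agent.H123.ExcComb Cfsg.Agent.H469.Exc
open Cfsg.Agent.H225.Gen (hi_F4 hi_E6 hi_E7 hi_E8)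

universe v

variable {D : ChevalleyDatum} {l : ℕ} {M : CoxeterMatrix (Fin l)} {r q : ℕ} [Fact r.Prime] {K₀ : Type v} [Group K₀]

theorem elab_pgroup {Y : Type*} [Group Y] {p : ℕ} [Fact p.Prime] {E : Subgroup Y} (hE : IsElementaryAbelian p E) :
    IsPGroup p ↥E := fun x => ⟨1, Subtype.ext (by rw [pow_one]; exact hE.2 x.1 x.2)⟩

theorem exists_gam (l : ℕ) {ε : ℤ} (hε : ε = 1 ∨ ε = -1) : ∃ γ : (Fin l → ℤ) ≃+ (Fin l → ℤ), ∀ x, γ x = ε • x := by
  rcases hε with rfl | rfl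
  · exact ⟨AddEquiv.refl _, fun x => (one_smul _ _).symm⟩
  · exact ⟨AddEquiv.neg _, fun x => (neg_one_smul _ _).symm⟩

theorem eps_three {ε : ℤ} (h : Eps 3 q ε) : (3 : ℤ) ∣ q - ε := by exact_mod_cast h.2

theorem p1e_F4 {M : CoxeterMatrix (Fin 4)} {hp : IsType chevF4 4 M} (m : MData hp r q K₀)
    (hm : m.g = AddEquiv.refl _) : P1e m := by
  have := Fact.mk Nat.prime_three
  intro ε hε
  obtain ⟨γ, hγ⟩ := exists_gam 4 hε.1
  exact ⟨γ, hγ, fun E hE hσ => H900.Fra.F4_three m hm hε.1 (eps_three hε) hγ (elab_pgroup hE) hσ⟩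

theorem p1e_E7 {M : CoxeterMatrix (Fin 7)} {hp : IsType chevE7 7 M} (m : MData hp r q K₀)
    (hm : m.g = AddEquiv.refl _) : P1e m := by
  have := Fact.mk Nat.prime_three
  intro ε hε
  obtain ⟨γ, hγ⟩ := exists_gam 7 hε.1
  exact ⟨γ, hγ, fun E hE hσ => H900.Fra.E7_three m hm hε.1 (eps_three hε) hγ (elab_pgroup hE) hσ⟩

theorem p1e_E8 {M : CoxeterMatrix (Fin 8)} {hp : IsType chevE8 8 M} (m : MData hp r q K₀)
    (hm : m.g = AddEquiv.refl _) : P1e m := by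
  have := Fact.mk Nat.prime_three
  intro ε hε
  obtain ⟨γ, hγ⟩ := exists_gam 8 hε.1
  exact ⟨γ, hγ, fun E hE hσ => H900.Fra.E8_three m hm hε.1 (eps_three hε) hγ (elab_pgroup hE) hσ⟩

theorem one_lt_q {hp : IsType D l M} (m : MData hp r q K₀) : 1 < q := by
  rw [← m.hq]
  exact Nat.one_lt_pow m.he.ne' (Fact.out : r.Prime).one_lt

theorem p1g_E6 {hp : IsType chevE6 6 CoxeterMatrix.E₆} (m : MData hp r q K₀)
    (hm : m.g = AddEquiv.refl _) : P1g m := by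
  have := Fact.mk Nat.prime_three
  have hq := one_lt_q m
  rintro ε ⟨rfl | rfl, h⟩
  · refine ⟨AddEquiv.refl _, Or.inl fun x => (one_smul _ _).symm, fun E hE hσ => ?_⟩
    exact H900.Fra.E6_matched m hm (by push_cast at h; omega) (fun _ => rfl) (elab_pgroup hE) hσ
  · refine ⟨(H720.TwFr.permE H720.TwFr.rho6).trans (AddEquiv.neg _), Or.inr fun x => (neg_one_smul _ _).symm,
      fun E hE hσ => ?_⟩
    exact H900.Fra.E6_unmatched m hm (by push_cast at h; omega) (fun _ => rfl) (elab_pgroup hE) hσ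

theorem p1g_TE6 {hp : IsType chevE6 6 CoxeterMatrix.E₆} (m : MData hp r q K₀)
    (hm : m.g = H720.TwFr.permE H720.TwFr.rho6) : P1g m := by
  have := Fact.mk Nat.prime_three
  have hq := one_lt_q m
  rintro ε ⟨rfl | rfl, h⟩
  · refine ⟨H720.TwFr.permE H720.TwFr.rho6, Or.inr fun x => (one_smul _ _).symm, fun E hE hσ => ?_⟩
    exact H900.Fra.TE6_unmatched m hm (by push_cast at h; omega) (fun _ => rfl) (elab_pgroup hE) hσ
  · refine ⟨AddEquiv.neg _, Or.inl fun x => (neg_one_smul _ _).symm, fun E hE hσ => ?_⟩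
    exact H900.Fra.TE6_matched m hm (by push_cast at h; omega) (fun _ => rfl) (elab_pgroup hE) hσ

/-- the pieces -/
theorem pcs {hp : IsType D l M} (h : HiList D) (hB2 : D ≠ chevB2) (m : MData hp r q K₀)
    (hA : P5 hp r 3 (OrbA hp)) (hN : P5 hp r 3 (OrbN hp)) : Pcs m := by
  have := Fact.mk Nat.prime_three
  exact ⟨H875.Mono.ptrich h hp, orbF (H496.Gen.T2.center_group hp hB2 _) h 3, H655.Mono.p5_orbO h, hA, hN,
    H875.Mono.pnoPlusA h m⟩

variable [IsSimpleGroup K₀]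

/-- **`E₈`.** -/
theorem three_E8 {hp : IsType chevE8 8 CoxeterMatrix.E₈} (m : MData hp r q K₀) (hm : m.g = AddEquiv.refl _)
    (hA : P5 hp r 3 (OrbA hp)) (hN : P5 hp r 3 (OrbN hp)) (hr2 : r ≠ 2) (hr3 : 3 ≠ r) (hq : 5 ≤ q) : GenIn m 3 :=
  genIn_E8_three m (pcs hi_E8 (ne_of_apply_ne ChevalleyDatum.nroots (by decide +kernel)) m hA hN)
    (H225.Mono.p8a m hi_E8 (ne_of_apply_ne ChevalleyDatum.nroots (by decide +kernel))
      (ne_of_apply_ne ChevalleyDatum.nroots (by decide +kernel))) (p1e_E8 m hm) hr2 hr3 hq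

/-- **`E₇`.** -/
theorem three_E7 {hp : IsType chevE7 7 CoxeterMatrix.E₇} (m : MData hp r q K₀) (hm : m.g = AddEquiv.refl _)
    (hA : P5 hp r 3 (OrbA hp)) (hN : P5 hp r 3 (OrbN hp)) (hr2 : r ≠ 2) (hr3 : 3 ≠ r) (hq : 5 ≤ q) : GenIn m 3 :=
  genIn_E7_three m (pcs hi_E7 (ne_of_apply_ne ChevalleyDatum.nroots (by decide +kernel)) m hA hN)
    (H225.Mono.p8a m hi_E7 (ne_of_apply_ne ChevalleyDatum.nroots (by decide +kernel))
      (ne_of_apply_ne ChevalleyDatum.nroots (by decide +kernel))) (p1e_E7 m hm) hr2 hr3 hq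

/-- **`F₄`.** -/
theorem three_F4 {hp : IsType chevF4 4 CoxeterMatrix.F₄} (m : MData hp r q K₀) (hm : m.g = AddEquiv.refl _)
    (hA : P5 hp r 3 (OrbA hp)) (hN : P5 hp r 3 (OrbN hp)) (hb : P8b hp r) (hr2 : r ≠ 2) (hr3 : 3 ≠ r) (hq : 5 ≤ q) :
    GenIn m 3 :=
  genIn_F4_three m (pcs hi_F4 (ne_of_apply_ne ChevalleyDatum.nroots (by decide +kernel)) m hA hN)
    (H225.Mono.p8a m hi_F4 (ne_of_apply_ne ChevalleyDatum.nroots (by decide +kernel))
      (ne_of_apply_ne ChevalleyDatum.nroots (by decide +kernel))) hb (p1e_F4 m hm) hr2 hr3 hq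

/-- **`E₆`, `²E₆`.** -/
theorem three_E6 {hp : IsType chevE6 6 CoxeterMatrix.E₆} (m : MData hp r q K₀)
    (hm : m.g = AddEquiv.refl _ ∨ m.g = H720.TwFr.permE H720.TwFr.rho6)
    (hA : P5 hp r 3 (OrbA hp)) (hN : P5 hp r 3 (OrbN hp)) (hc : P8c m) (hr2 : r ≠ 2) (hr3 : 3 ≠ r) (hq : 5 ≤ q) :
    GenIn m 3 :=
  genIn_E6_three m (pcs hi_E6 (ne_of_apply_ne ChevalleyDatum.nroots (by decide +kernel)) m hA hN)
    (H225.Mono.p8a m hi_E6 (ne_of_apply_ne ChevalleyDatum.nroots (by decide +kernel))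
      (ne_of_apply_ne ChevalleyDatum.nroots (by decide +kernel))) (H875.Mono.pnoPlusB m) hc
    (by rcases hm with hm | hm
        · exact p1g_E6 m hm
        · exact p1g_TE6 m hm) hr2 hr3 hq

end Cfsg.Agent.H496.Mono
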